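import Cfsg.Agent.Lib.Helper21.Uni.Defs
import Cfsg.Agent.Lib.Helper67.Elus.J1
import Cfsg.Agent.Lib.Helper67.Elus.J2
import Cfsg.Agent.Lib.Helper67.Elus.J4
import Cfsg.Agent.Lib.Helper67.Elus.J1a
import Cfsg.Agent.Lib.Helper67.Elus.J1b
import Cfsg.Agent.Lib.Helper67.Elus.J1c
import Cfsg.Agent.Lib.Helper67.Elus.J5b
import Cfsg.Agent.Lib.Helper67.Elus.JP
import Cfsg.Agent.Lib.Helper89.Uni.J1
import Cfsg.Agent.Lib.Helper89.Uni.J2
import Cfsg.Agent.Lib.Helper89.Uni.J3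
import Cfsg.Agent.Lib.Helper89.Uni.J4
import Cfsg.Agent.Lib.Helper19.Uni.C1
import Cfsg.Agent.Lib.Helper19.Uni.C2
import Cfsg.Agent.Lib.Helper19.Uni.C3
import Cfsg.Agent.Lib.Helper19.Uni.C4
import Cfsg.Agent.Lib.Helper19.Uni.C5
import Cfsg.Agent.Lib.Helper19.Uni.C6
import Cfsg.Agent.Lib.Helper19.Uni.C7
import Cfsg.Agent.Lib.Helper19.Uni.C8
import Cfsg.Agent.Lib.Helper19.Uni.C9
import Cfsg.Agent.Lib.Helper30.Uni.C10
import Cfsg.Agent.Lib.Helper30.Uni.C11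
import Cfsg.Agent.Lib.Helper30.Uni.G1
import Cfsg.Agent.Lib.Helper30.Uni.G2
import Cfsg.Agent.Lib.Helper89.Uni.G3
import Cfsg.Agent.Lib.Helper89.Uni.G4
import Cfsg.Agent.Lib.Helper30.Uni.G5
import Cfsg.Agent.Lib.Helper96.Uni.I1
import Cfsg.Agent.Lib.Helper96.Uni.I2
import Cfsg.Agent.Lib.Helper96.Uni.I3

set_option autoImplicit false

namespace Cfsg.Agent.Lib.Helper21.Uni

open Matrix Module Cfsg.Agent.Lib.Helper67.Elus

variable {F : Type*} [Field F]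
variable {I J K L : Type} [Fintype I] [Fintype J] [Fintype K] [Fintype L]
  [DecidableEq I] [DecidableEq J] [DecidableEq K] [DecidableEq L]

/-! ## J: Jordan types of matrices -/

/-- J1 -/
theorem jtype_conj {V V' : Type*} [AddCommGroup V] [Module F V] [AddCommGroup V'] [Module F V']
    (e : V ≃ₗ[F] V') {N : Module.End F V} {μ : Multiset ℕ} (h : JType N μ) :
    JType ((e : V →ₗ[F] V') ∘ₗ N ∘ₗ (e.symm : V' →ₗ[F] V)) μ := by
  exact Cfsg.Agent.Lib.Helper89.Uni.jtype_conj e h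

/-- J2 -/
theorem jtype_fromBlocks {N₁ : Matrix I I F} {N₂ : Matrix J J F} {μ₁ μ₂ : Multiset ℕ}
    (h₁ : JType (Matrix.toLin' N₁) μ₁) (h₂ : JType (Matrix.toLin' N₂) μ₂) :
    JType (Matrix.toLin' (fromBlocks N₁ 0 0 N₂)) (μ₁ + μ₂) := by
  exact Cfsg.Agent.Lib.Helper89.Uni.jtype_fromBlocks h₁ h₂

/-- J3 -/
theorem jtype_shift (e : ℕ) : JType (Matrix.toLin' (shift F e)) {e} := by
  exact Cfsg.Agent.Lib.Helper89.Uni.jtype_shift e

/-- J4 -/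
theorem jtype_matrix_conj {N : Matrix I I F} {μ : Multiset ℕ} (h : JType (Matrix.toLin' N) μ)
    (P : Matrix I J F) (P' : Matrix J I F) (h1 : P * P' = 1) (h2 : P' * P = 1) :
    JType (Matrix.toLin' (P' * N * P)) μ := by
  exact Cfsg.Agent.Lib.Helper89.Uni.jtype_matrix_conj h P P' h1 h2

/-! ## C: congruence -/

/-- C1 -/
theorem cg_refl (G : Matrix I I F) : Cg G G := by
  exact Cfsg.Agent.Lib.Helper19.Uni.cg_refl G

/-- C2 -/
theorem cg_trans {G : Matrix I I F} {G' : Matrix J J F} {G'' : Matrix K K F} (h : Cg G G')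
    (h' : Cg G' G'') : Cg G G'' := by
  exact Cfsg.Agent.Lib.Helper19.Uni.cg_trans h h'

/-- C3 -/
theorem cg_blocks {X : Matrix I I F} {X' : Matrix J J F} {Y : Matrix K K F} {Y' : Matrix L L F}
    (h : Cg X X') (h' : Cg Y Y') : Cg (bs X Y) (bs X' Y') := by
  exact Cfsg.Agent.Lib.Helper19.Uni.cg_blocks h h'

/-- C4 -/
theorem cg_reindex (G : Matrix I I F) (e : J ≃ I) : Cg G (G.submatrix e e) := by
  exact Cfsg.Agent.Lib.Helper19.Uni.cg_reindex G e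

/-- C5 -/
theorem cg_interchange (X : Matrix I I F) (Y : Matrix J J F) (Z : Matrix K K F) (W : Matrix L L F) :
    Cg (bs (bs X Y) (bs Z W)) (bs (bs X Z) (bs Y W)) := by
  exact Cfsg.Agent.Lib.Helper19.Uni.cg_interchange X Y Z W

/-- C6 -/
theorem cg_assoc (X : Matrix I I F) (Y : Matrix J J F) (Z : Matrix K K F) :
    Cg (bs (bs X Y) Z) (bs X (bs Y Z)) := by
  exact Cfsg.Agent.Lib.Helper19.Uni.cg_assoc X Y Z

/-- C7 -/
theorem cg_hy_sum : Cg (bs (Hy I F) (Hy J F)) (Hy (I ⊕ J) F) := by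
  exact Cfsg.Agent.Lib.Helper19.Uni.cg_hy_sum 

/-- C8 -/
theorem cg_hy_congr (e : I ≃ J) : Cg (Hy I F) (Hy J F) := by
  exact Cfsg.Agent.Lib.Helper19.Uni.cg_hy_congr e

/-- C9 -/
theorem cg_hy_of_unit (D D' : Matrix I I F) (h1 : D * D' = 1) (h2 : D' * D = 1) :
    Cg (fromBlocks 0 D Dᵀ 0 : Matrix (I ⊕ I) (I ⊕ I) F) (Hy I F) := by
  exact Cfsg.Agent.Lib.Helper19.Uni.cg_hy_of_unit D D' h1 h2

/-- C10 -/
theorem cg_lines (h2 : (2 : F) ≠ 0) {c : F} (hc : c ≠ 0) : Cg (bs (Ln c) (Ln (-c))) (Hy Unit F) := by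
  exact Cfsg.Agent.Lib.Helper30.Uni.cg_lines h2 hc

/-- C11 -/
theorem cg_anti_odd (a : ℕ) {c : F} (hc : c ≠ 0) :
    Cg (c • anti F (2 * a + 1)) (bs (Ln ((-1) ^ a * c)) (Hy (Fin a) F)) := by
  exact Cfsg.Agent.Lib.Helper30.Uni.cg_anti_odd a hc

/-! ## G: gadgets -/

/-- G1 -/
theorem shift_anti (e : ℕ) : (shift F e)ᵀ * anti F e = - (anti F e * shift F e) := by
  exact Cfsg.Agent.Lib.Helper30.Uni.shift_anti e

/-- G2 -/
theorem anti_mul_transpose (e : ℕ) : anti F e * (anti F e)ᵀ = 1 ∧ (anti F e)ᵀ * anti F e = 1 := by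
  exact Cfsg.Agent.Lib.Helper30.Uni.anti_mul_transpose e

/-- G3 -/
theorem realM_congr {G : Matrix I I F} {G' : Matrix J J F} {μ : Multiset ℕ} (h : RealM G μ)
    (hc : Cg G G') : RealM G' μ := by
  exact Cfsg.Agent.Lib.Helper89.Uni.realM_congr h hc

/-- G4 -/
theorem realM_blocks {G₁ : Matrix I I F} {G₂ : Matrix J J F} {μ₁ μ₂ : Multiset ℕ} (h₁ : RealM G₁ μ₁)
    (h₂ : RealM G₂ μ₂) : RealM (bs G₁ G₂) (μ₁ + μ₂) := by
  exact Cfsg.Agent.Lib.Helper89.Uni.realM_blocks h₁ h₂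

/-- G5 -/
theorem realM_pair (e : ℕ) : RealM (Hy (Fin e) F) {e, e} := by
  exact Cfsg.Agent.Lib.Helper30.Uni.realM_pair e

/-- G6 -/
theorem realM_odd (a : ℕ) {c : F} (hc : c ≠ 0) : RealM (bs (Ln c) (Hy (Fin a) F)) {2 * a + 1} := by
  have hc' : (-1 : F) ^ a * c ≠ 0 := mul_ne_zero (pow_ne_zero _ (by simp)) hc
  have h1 : RealM (((-1 : F) ^ a * c) • anti F (2 * a + 1)) {2 * a + 1} := by
    refine ⟨shift F (2 * a + 1), jtype_shift _, ?_⟩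
    rw [Matrix.mul_smul, shift_anti, Matrix.smul_mul, smul_neg]
  have h2 := realM_congr h1 (cg_anti_odd a hc')
  have h3 : (-1 : F) ^ a * ((-1) ^ a * c) = c := by
    rw [← mul_assoc, ← pow_add, ← two_mul, pow_mul]
    simp
  rwa [h3] at h2

/-- G7 -/
theorem realM_odd_pair (h2 : (2 : F) ≠ 0) (a a' : ℕ) :
    RealM (Hy (Fin (a + a' + 1)) F) {2 * a + 1, 2 * a' + 1} := by
  have h1 := realM_blocks (realM_odd (F := F) a (c := 1) one_ne_zero)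
    (realM_odd (F := F) a' (c := -1) (by simp))
  have e : Unit ⊕ (Fin a ⊕ Fin a') ≃ Fin (a + a' + 1) :=
    Fintype.equivFinOfCardEq (by simp; ring)
  have hc : Cg (bs (bs (Ln (1 : F)) (Hy (Fin a) F)) (bs (Ln (-1 : F)) (Hy (Fin a') F)))
      (Hy (Fin (a + a' + 1)) F) :=
    cg_trans (cg_trans (cg_interchange _ _ _ _) (cg_blocks (cg_lines h2 one_ne_zero) cg_hy_sum))
      (cg_trans cg_hy_sum (cg_hy_congr e))
  exact realM_congr h1 hc

/-! ## I: induction -/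

/-- I1 -/
theorem exists_pair_of_adm {μ : Multiset ℕ} (hA : Adm μ) (hs : Even μ.sum) (h0 : μ ≠ 0) :
    ∃ (e e' : ℕ) (μ' : Multiset ℕ), μ = {e, e'} + μ' ∧ (e = e' ∨ (Odd e ∧ Odd e')) ∧ Adm μ' ∧
      Even μ'.sum := by
  exact Cfsg.Agent.Lib.Helper96.Uni.exists_pair_of_adm hA hs h0

/-- I2 -/
theorem realM_plus (h2 : (2 : F) ≠ 0) (μ : Multiset ℕ) (hA : Adm μ) (d : ℕ) (hs : μ.sum = 2 * d) :
    RealM (Hy (Fin d) F) μ := by
  exact Cfsg.Agent.Lib.Helper96.Uni.realM_plus h2 μ hA d hs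

/-- I3 -/
theorem realM_oddDim (h2 : (2 : F) ≠ 0) {c : F} (hc : c ≠ 0) (μ : Multiset ℕ) (hA : Adm μ) (d : ℕ)
    (hs : μ.sum = 2 * d + 1) : RealM (bs (Ln c) (Hy (Fin d) F)) μ := by
  exact Cfsg.Agent.Lib.Helper96.Uni.realM_oddDim h2 hc μ hA d hs

end Cfsg.Agent.Lib.Helper21.Uni
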