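import Cfsg.Agent.Lib.Helper21.Uni.PartA
import Cfsg.Agent.Lib.Helper21.Uni.PartB

set_option autoImplicit false

/-! # Unipotent elements of orthogonal groups with a prescribed Jordan type: the core statement -/

namespace Cfsg.Agent.Lib.Helper21.Uni

open Matrix Module Cfsg Cfsg.Geo Cfsg.Agent.Lib.Helper67.Elus

theorem jtype_ne_zero {F : Type*} [Field F] {V : Type*} [AddCommGroup V] [Module F V]
    {N : Module.End F V} {μ : Multiset ℕ} (h : JType N μ) {e : ℕ} (he : e ∈ μ) (h1 : 1 < e) :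
    N ≠ 0 := by
  obtain ⟨κ, _, d, b, rfl, hc⟩ := h
  obtain ⟨k, -, rfl⟩ := Multiset.mem_map.1 he
  intro h0
  have := hc k ⟨0, by omega⟩
  rw [h0, dif_pos (by simpa using h1)] at this
  exact b.ne_zero _ this.symm

variable {F : Type*} [Field F] [Fintype F] {ι : Type} [Fintype ι] [DecidableEq ι]

theorem row_core {p : ℕ} [Fact p.Prime] [CharP F p] (h2 : (2 : F) ≠ 0) (hpodd : Odd p)
    (Q : QuadraticForm F (ι → F)) (hQ : (QuadraticMap.polarBilin Q).Nondegenerate)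
    (G : Matrix ι ι F) (hG : ∀ u v, QuadraticMap.polar Q u v = u ⬝ᵥ (G *ᵥ v)) {μ : Multiset ℕ}
    (hμ : ∀ e ∈ μ, 0 < e ∧ e ≤ p) {e₀ : ℕ} (he₀ : e₀ ∈ μ) (h1 : 1 < e₀) (hR : RealM G μ) :
    ∃ x : GL ι F, x ∈ omegaGL ⇑Q ∧ x ^ p = 1 ∧ (∀ z : F, (x : Matrix ι ι F) ≠ z • 1) ∧
      ∀ W : Submodule F (ι → F), IsNondegenerateOn (QuadraticMap.polar ⇑Q) W →
        W.map (Matrix.toLin' (x : Matrix ι ι F)) ≤ W →
        ∃ ν : Multiset ℕ, ν ≤ μ ∧ ν.sum = finrank F W ∧ Adm ν ∧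
          ((∀ e ∈ ν, e = 2) → IsPlusTypeOn ⇑Q W) := by
  obtain ⟨N, hJ, hs⟩ := exists_end_of_realM Q G hG hR
  have hNp : N ^ p = 0 := jtype_pow_eq_zero hJ (fun a ha => (hμ a ha).2)
  have hNil : IsNilpotent N := ⟨p, hNp⟩
  have hN0 : N ≠ 0 := jtype_ne_zero hJ he₀ h1
  obtain ⟨x, hxB, hxN, hxc⟩ := exists_cayley (QuadraticMap.polarBilin Q) hNil hs
  obtain ⟨g, hgI, hgx, hgk⟩ := exists_gl_of_equiv h2 Q x hxB
  have hgp : g ^ p = 1 := hgk p (cayley_pow hNp hxN hxc)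
  refine ⟨g, mem_omegaGL_of_pow h2 Q hQ hpodd g hgI hgp, hgp, ?_, ?_⟩
  · intro z hz
    apply cayley_ne_smul h2 hNil hN0 hxN z
    refine LinearMap.ext fun v => ?_
    have := hgx v
    rw [hz] at this
    simp only [LinearEquiv.coe_coe, LinearMap.smul_apply, Module.End.one_apply]
    rw [← this, Matrix.smul_mulVec, Matrix.one_mulVec]
  · intro W hWnd hWinv
    have hWx : ∀ w ∈ W, x w ∈ W := by
      intro w hw
      rw [← hgx w]
      apply hWinv
      exact ⟨w, hw, by simp [Matrix.toLin'_apply]⟩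
    have hInv : Inv N W := inv_of_cayley h2 hNil hxN hxc hWx
    have hsymm : LinearMap.BilinForm.IsSymm (QuadraticMap.polarBilin Q) :=
      ⟨fun u v => by
        simp only [QuadraticMap.polarBilin_apply_apply]
        exact QuadraticMap.polar_comm _ _ _⟩
    obtain ⟨ν, hle, hsum, hA, hpos, hJν⟩ := sub_partition h2 (QuadraticMap.polarBilin Q) hsymm hs hNil
      hJ (fun e he => (hμ e he).1) W hInv (restrict_nondegenerate Q W hWnd)
    refine ⟨ν, hle, hsum, hA, ?_⟩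
    intro h2s
    obtain ⟨U, hUW, hU0, hUr⟩ := isotropic_of_twos (QuadraticMap.polarBilin Q) hs W hInv hJν h2s
    refine ⟨U, hUW, ?_, hUr⟩
    intro u hu
    have h := hU0 u hu u hu
    rw [QuadraticMap.polarBilin_apply_apply, QuadraticMap.polar_self] at h
    simpa [h2] using h

end Cfsg.Agent.Lib.Helper21.Uni
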