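import Cfsg.Agent.Lib.Helper67.Elus.JDefs

set_option autoImplicit false

/-! # Unipotent elements of orthogonal groups with a prescribed Jordan type: vocabulary -/

namespace Cfsg.Agent.Lib.Helper21.Uni

open Matrix Cfsg.Agent.Lib.Helper67.Elus

/-- every even part has even multiplicity -/
def Adm (μ : Multiset ℕ) : Prop := ∀ e : ℕ, Even e → Even (μ.count e)

/-- `N` is skew-adjoint for `B` -/
def Skew {F : Type*} [Field F] {V : Type*} [AddCommGroup V] [Module F V]
    (B : LinearMap.BilinForm F V) (N : Module.End F V) : Prop := ∀ u v, B (N u) v = - B u (N v)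

/-- the orthogonal sum of two Gram matrices -/
abbrev bs {F : Type*} [Field F] {I J : Type} (X : Matrix I I F) (Y : Matrix J J F) :
    Matrix (I ⊕ J) (I ⊕ J) F := fromBlocks X 0 0 Y

/-- the hyperbolic Gram matrix -/
def Hy (ι : Type) [DecidableEq ι] (F : Type*) [Field F] : Matrix (ι ⊕ ι) (ι ⊕ ι) F :=
  fromBlocks 0 1 1 0

/-- the Gram matrix of a line -/
def Ln {F : Type*} [Field F] (c : F) : Matrix Unit Unit F := fun _ _ => c

/-- congruence of Gram matrices (with a change of the index type) -/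
def Cg {F : Type*} [Field F] {I J : Type} [Fintype I] [Fintype J] [DecidableEq I] [DecidableEq J]
    (G : Matrix I I F) (G' : Matrix J J F) : Prop :=
  ∃ (P : Matrix I J F) (P' : Matrix J I F), P * P' = 1 ∧ P' * P = 1 ∧ G' = Pᵀ * G * P

/-- some nilpotent matrix of Jordan type `μ` is skew-adjoint for the form with Gram matrix `G` -/
def RealM {F : Type*} [Field F] {I : Type} [Fintype I] [DecidableEq I] (G : Matrix I I F)
    (μ : Multiset ℕ) : Prop :=
  ∃ N : Matrix I I F, JType (Matrix.toLin' N) μ ∧ Nᵀ * G = - (G * N)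

/-- the shift `e_j ↦ e_{j+1}` -/
def shift (F : Type*) [Field F] (e : ℕ) : Matrix (Fin e) (Fin e) F :=
  fun i j => if (j : ℕ) + 1 = (i : ℕ) then 1 else 0

/-- the signed anti-diagonal matrix -/
def anti (F : Type*) [Field F] (e : ℕ) : Matrix (Fin e) (Fin e) F :=
  fun i j => if (i : ℕ) + (j : ℕ) + 1 = e then (-1) ^ (i : ℕ) else 0

end Cfsg.Agent.Lib.Helper21.Uni
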