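import Cfsg.Agent.Lib.Helper21.Uni.Defs
import Cfsg.Agent.Lib.Helper44.StdForms

set_option autoImplicit false

/-! # Gram matrices of the standard quadratic forms -/

namespace Cfsg.Agent.Lib.Helper21.Uni

open Matrix Module Cfsg Cfsg.Agent.Lib.Helper44

variable {F : Type*} [Field F]

theorem plusQF_gram (d : ℕ) (u v : Fin d ⊕ Fin d → F) :
    QuadraticMap.polar (plusQF d F) u v = u ⬝ᵥ (Hy (Fin d) F *ᵥ v) := by
  rw [plusQF_polar]
  simp only [dotProduct, mulVec, Hy, Fintype.sum_sum_type, fromBlocks_apply₁₁, fromBlocks_apply₁₂,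
    fromBlocks_apply₂₁, fromBlocks_apply₂₂, Matrix.zero_apply, Matrix.one_apply, zero_mul,
    Finset.sum_const_zero, ite_mul, one_mul, Finset.sum_ite_eq, Finset.mem_univ, if_true, zero_add,
    add_zero, Finset.sum_add_distrib]
  congr 1
  exact Finset.sum_congr rfl fun i _ => mul_comm _ _

theorem oddQF_gram (d : ℕ) (u v : Unit ⊕ (Fin d ⊕ Fin d) → F) :
    QuadraticMap.polar (oddQF d F) u v = u ⬝ᵥ (bs (Ln (2 : F)) (Hy (Fin d) F) *ᵥ v) := by
  rw [oddQF_polar]
  simp only [dotProduct, mulVec, Hy, Ln, Fintype.sum_sum_type, fromBlocks_apply₁₁, fromBlocks_apply₁₂,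
    fromBlocks_apply₂₁, fromBlocks_apply₂₂, Matrix.zero_apply, Matrix.one_apply, zero_mul,
    Finset.sum_const_zero, ite_mul, one_mul, Finset.sum_ite_eq, Finset.mem_univ, if_true, zero_add,
    add_zero, Finset.sum_add_distrib, Finset.univ_unique, Finset.sum_singleton]
  congr 1
  · simp only [PUnit.default_eq_unit]; ring
  · congr 1
    exact Finset.sum_congr rfl fun i _ => mul_comm _ _

end Cfsg.Agent.Lib.Helper21.Uni
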