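import Cfsg.Agent.Lib.Helper21.Uni.Defs
import Mathlib
import Cfsg.Agent.Lib.Helper12.Uni.M1
import Cfsg.Agent.Lib.Helper1.Uni.M4
import Cfsg.Agent.Lib.Helper1.Uni.M5

set_option autoImplicit false

namespace Cfsg.Agent.Lib.Helper21.Uni

open Matrix Module Cfsg.Agent.Lib.Helper67.Elus

variable {F : Type*} [Field F]
variable {I J : Type} [Fintype I] [Fintype J] [DecidableEq I] [DecidableEq J]

/-- M1 -/
theorem cg_swap (X : Matrix I I F) (Y : Matrix J J F) : Cg (bs X Y) (bs Y X) := by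
  exact Cfsg.Agent.Lib.Helper12.Uni.cg_swap X Y

/-- M2 -/
theorem cg_binary (h2 : (2 : F) ≠ 0) (a b : F) :
    Cg (bs (Ln (2 : F)) (Ln (2 * b - a ^ 2 / 2))) (!![2, a; a, 2 * b] : Matrix (Fin 2) (Fin 2) F) := by
  exact Cfsg.Agent.Lib.Helper12.Uni.cg_binary h2 a b

/-- M3 -/
theorem exists_odd_pair {μ : Multiset ℕ} (hA : Adm μ) (hs : Even μ.sum) {e : ℕ} (he : e ∈ μ)
    (ho : Odd e) :
    ∃ (e' : ℕ) (μ' : Multiset ℕ), μ = {e, e'} + μ' ∧ Odd e' ∧ Adm μ' ∧ Even μ'.sum := by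
  exact Cfsg.Agent.Lib.Helper12.Uni.exists_odd_pair hA hs he ho

/-- M4 -/
theorem sub_of_all_even {μ : Multiset ℕ} (hA : Adm μ) (hev : ∀ e ∈ μ, Even e) {e : ℕ} (he : e ∈ μ)
    (he0 : 0 < e) {m : ℕ} (hme : Even m) :
    ∃ μ₀ : Multiset ℕ, μ = {e, e} + μ₀ ∧ Adm ({e + 1, e - 1} + μ₀) ∧
      ∀ ν' : Multiset ℕ, ν' ≤ {e + 1, e - 1} + μ₀ → ν'.sum = m → Adm ν' →
        ∃ ν : Multiset ℕ, ν ≤ μ ∧ ν.sum = m ∧ Adm ν := by
  exact Cfsg.Agent.Lib.Helper1.Uni.sub_of_all_even hA hev he he0 hme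

/-- M5 -/
theorem mod_four_minus {k m : ℕ} (hme : Even m) {ν : Multiset ℕ}
    (hle : ν ≤ 1 ::ₘ 1 ::ₘ Multiset.replicate k 2) (hs : ν.sum = m) (hA : Adm ν)
    (hn : ¬ ∀ e ∈ ν, e = 2) : m % 4 = 2 := by
  exact Cfsg.Agent.Lib.Helper1.Uni.mod_four_minus hme hle hs hA hn

end Cfsg.Agent.Lib.Helper21.Uni
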