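import Cfsg.Agent.Lib.Helper21.Uni.Rows
import Cfsg.Agent.Lib.Helper21.Uni.PartC

set_option autoImplicit false

/-! # Unipotent elements of orthogonal groups: the minus type row -/

namespace Cfsg.Agent.Lib.Helper21.Uni

open Matrix Module Cfsg Cfsg.Geo Cfsg.Agent.Lib.Helper67.Elus Cfsg.Agent.Lib.Helper44

theorem minusQF_gram {F : Type*} [Field F] (d : ℕ) (a b : F)
    (u v : (Fin d ⊕ Fin d) ⊕ Fin 2 → F) :
    QuadraticMap.polar (minusQF d F a b) u v =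
      u ⬝ᵥ (bs (Hy (Fin d) F) (!![2, a; a, 2 * b] : Matrix (Fin 2) (Fin 2) F) *ᵥ v) := by
  rw [minusQF_polar]
  simp only [dotProduct, mulVec, Hy, Fintype.sum_sum_type, fromBlocks_apply₁₁, fromBlocks_apply₁₂,
    fromBlocks_apply₂₁, fromBlocks_apply₂₂, Matrix.zero_apply, Matrix.one_apply, zero_mul,
    Finset.sum_const_zero, ite_mul, one_mul, Finset.sum_ite_eq, Finset.mem_univ, if_true, zero_add,
    add_zero, Finset.sum_add_distrib, Fin.sum_univ_two]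
  congr 1
  · congr 1
    exact Finset.sum_congr rfl fun i _ => mul_comm _ _
  · simp
    ring

theorem realM_minus {F : Type*} [Field F] (h2 : (2 : F) ≠ 0) (a b : F)
    (hc : 2 * b - a ^ 2 / 2 ≠ 0) (μ : Multiset ℕ) (hA : Adm μ) (d : ℕ) (hs : μ.sum = 2 * d + 2)
    {e : ℕ} (he : e ∈ μ) (ho : Odd e) :
    RealM (bs (Hy (Fin d) F) (!![2, a; a, 2 * b] : Matrix (Fin 2) (Fin 2) F)) μ := by
  obtain ⟨e', μ', rfl, ho', hA', hs'⟩ := exists_odd_pair hA (by rw [hs]; exact ⟨d + 1, by ring⟩) he ho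
  obtain ⟨α, rfl⟩ := ho
  obtain ⟨α', rfl⟩ := ho'
  obtain ⟨d', hd'⟩ := hs'
  have hd'' : μ'.sum = 2 * d' := by omega
  have hsum : α + α' + d' = d := by
    simp at hs
    omega
  have r1 := realM_odd (F := F) α h2
  have r2 := realM_odd (F := F) α' hc
  have r3 := realM_plus h2 μ' hA' d' hd''
  have r := realM_blocks (realM_blocks r1 r2) r3
  have eq : (Fin α ⊕ Fin α') ⊕ Fin d' ≃ Fin d := Fintype.equivFinOfCardEq (by simp; omega)
  have c1 : Cg (bs (bs (bs (Ln (2 : F)) (Hy (Fin α) F)) (bs (Ln (2 * b - a ^ 2 / 2)) (Hy (Fin α') F)))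
      (Hy (Fin d') F))
      (bs (bs (!![2, a; a, 2 * b] : Matrix (Fin 2) (Fin 2) F) (Hy (Fin α ⊕ Fin α') F))
        (Hy (Fin d') F)) :=
    cg_blocks (cg_trans (cg_interchange _ _ _ _) (cg_blocks (cg_binary h2 a b) cg_hy_sum))
      (cg_refl _)
  have c2 : Cg (bs (bs (!![2, a; a, 2 * b] : Matrix (Fin 2) (Fin 2) F) (Hy (Fin α ⊕ Fin α') F))
        (Hy (Fin d') F))
      (bs (!![2, a; a, 2 * b] : Matrix (Fin 2) (Fin 2) F) (Hy (Fin d) F)) :=
    cg_trans (cg_assoc _ _ _) (cg_blocks (cg_refl _) (cg_trans cg_hy_sum (cg_hy_congr eq)))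
  exact realM_congr r (cg_trans (cg_trans c1 c2) (cg_swap _ _))

variable {F : Type*} [Field F] [Fintype F]

/-- the hypothesis of the minus type row -/
def HMinus (F : Type*) [Field F] (p d m : ℕ) (a b : F) : Prop :=
  ∀ x : GL ((Fin d ⊕ Fin d) ⊕ Fin 2) F, x ∈ omegaGL (quadFormMinus d F a b) →
    (∃ z : F, ((x ^ p : GL ((Fin d ⊕ Fin d) ⊕ Fin 2) F) :
      Matrix ((Fin d ⊕ Fin d) ⊕ Fin 2) ((Fin d ⊕ Fin d) ⊕ Fin 2) F) =
        z • (1 : Matrix ((Fin d ⊕ Fin d) ⊕ Fin 2) ((Fin d ⊕ Fin d) ⊕ Fin 2) F)) →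
    (∀ z : F, (x : Matrix ((Fin d ⊕ Fin d) ⊕ Fin 2) ((Fin d ⊕ Fin d) ⊕ Fin 2) F) ≠
        z • (1 : Matrix ((Fin d ⊕ Fin d) ⊕ Fin 2) ((Fin d ⊕ Fin d) ⊕ Fin 2) F)) →
    ∃ W : Submodule F ((Fin d ⊕ Fin d) ⊕ Fin 2 → F), (finrank F ↥W = m ∧
      IsNondegenerateOn (QuadraticMap.polar (quadFormMinus d F a b)) W ∧
      ¬ IsPlusTypeOn (quadFormMinus d F a b) W) ∧
      W.map (Matrix.toLin' (x : Matrix ((Fin d ⊕ Fin d) ⊕ Fin 2) ((Fin d ⊕ Fin d) ⊕ Fin 2) F)) ≤ W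

theorem row_minus_core {p : ℕ} [Fact p.Prime] [CharP F p] (hodd : Odd (Fintype.card F)) (d m : ℕ)
    (a b : F) (hab : ∀ x y : F, x ^ 2 + a * x * y + b * y ^ 2 = 0 → x = 0 ∧ y = 0)
    (H : HMinus F p d m a b)
    (μ : Multiset ℕ) (hμ : ∀ e ∈ μ, 0 < e ∧ e ≤ p) (hA : Adm μ) (hsum : μ.sum = 2 * d + 2)
    {e : ℕ} (he : e ∈ μ) (ho : Odd e) {e₀ : ℕ} (he₀ : e₀ ∈ μ) (h1 : 1 < e₀) :
    ∃ ν : Multiset ℕ, ν ≤ μ ∧ ν.sum = m ∧ Adm ν ∧ ¬ ∀ e ∈ ν, e = 2 := by
  obtain ⟨hpodd, h2⟩ := odd_char (F := F) (p := p) hodd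
  have hc : 2 * b - a ^ 2 / 2 ≠ 0 := by
    have h := disc_ne_zero_of_anisotropic F hab
    intro h0
    apply h
    field_simp at h0
    linear_combination -h0
  obtain ⟨x, hxΩ, hxp, hxns, hxW⟩ := row_core h2 hpodd (minusQF d F a b) (minusQF_nondeg d F hab)
    _ (minusQF_gram d a b) hμ he₀ h1 (realM_minus h2 a b hc μ hA d hsum he ho)
  rw [minusQF_coe] at hxΩ hxW
  obtain ⟨W, ⟨hWm, hWnd, hWe⟩, hWx⟩ := H x hxΩ ⟨1, by rw [hxp]; simp⟩ hxns
  obtain ⟨ν, hle, hs, hAν, hpl⟩ := hxW W hWnd hWx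
  exact ⟨ν, hle, hs.trans hWm, hAν, fun h => hWe (hpl h)⟩

theorem row_minus_part {p : ℕ} [Fact p.Prime] [CharP F p] (hodd : Odd (Fintype.card F)) (d m : ℕ)
    (hme : Even m) (hmd : m ≤ 2 * d + 2)
    (a b : F) (hab : ∀ x y : F, x ^ 2 + a * x * y + b * y ^ 2 = 0 → x = 0 ∧ y = 0)
    (H : HMinus F p d m a b)
    (μ : Multiset ℕ) (hμ : ∀ e ∈ μ, 0 < e ∧ e ≤ p) (hA : Adm μ) (hsum : μ.sum = 2 * d + 2) :
    ∃ ν : Multiset ℕ, ν ≤ μ ∧ ν.sum = m ∧ Adm ν := by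
  obtain ⟨hpodd, h2⟩ := odd_char (F := F) (p := p) hodd
  by_cases h1 : ∀ e ∈ μ, e = 1
  · exact sub_of_all_ones h1 (hsum ▸ hmd)
  push Not at h1
  obtain ⟨e₀, he₀, hne⟩ := h1
  have h1' : 1 < e₀ := by have := (hμ e₀ he₀).1; omega
  by_cases hev : ∀ e ∈ μ, Even e
  · obtain ⟨μ₀, hμ₀, hA', hred⟩ := sub_of_all_even hA hev he₀ (by omega) hme
    have hee : Even e₀ := hev e₀ he₀
    have hle : e₀ + 1 ≤ p := by
      have h3 := (hμ e₀ he₀).2
      obtain ⟨x, hx⟩ := hee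
      obtain ⟨y, hy⟩ := hpodd
      omega
    have hmem : e₀ + 1 ∈ ({e₀ + 1, e₀ - 1} + μ₀ : Multiset ℕ) := by simp
    obtain ⟨ν', hle', hs', hAν', -⟩ := row_minus_core hodd d m a b hab H ({e₀ + 1, e₀ - 1} + μ₀)
      (by
        intro e he
        rw [Multiset.mem_add] at he
        rcases he with he | he
        · simp at he
          rcases he with rfl | rfl <;> omega
        · exact hμ e (by rw [hμ₀]; exact Multiset.mem_add.2 (Or.inr he)))
      hA'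
      (by
        rw [hμ₀] at hsum
        simp at hsum ⊢
        omega)
      hmem hee.add_one hmem (by omega)
    exact hred ν' hle' hs' hAν'
  · push Not at hev
    obtain ⟨e, he, ho⟩ := hev
    obtain ⟨ν, h3, h4, h5, -⟩ := row_minus_core hodd d m a b hab H μ hμ hA hsum he
      (Nat.not_even_iff_odd.1 ho) he₀ h1'
    exact ⟨ν, h3, h4, h5⟩

theorem row_minus_mod {p : ℕ} [hp : Fact p.Prime] [CharP F p] (hodd : Odd (Fintype.card F))
    (d m : ℕ) (hd : 1 ≤ d) (hme : Even m) (hmd : m ≤ 2 * d + 2)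
    (a b : F) (hab : ∀ x y : F, x ^ 2 + a * x * y + b * y ^ 2 = 0 → x = 0 ∧ y = 0)
    (H : HMinus F p d m a b) : (2 * d + 2) % 4 = m % 4 := by
  have hp2 := hp.out.two_le
  rcases Nat.even_or_odd d with hde | hdo
  · have hA : Adm (1 ::ₘ 1 ::ₘ Multiset.replicate d 2) := by
      intro e he
      have hne : e ≠ 1 := by
        rintro rfl
        exact absurd he (by decide)
      rw [Multiset.count_cons_of_ne hne]
      exact adm_cons_twos odd_one hde e he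
    obtain ⟨ν, hle, hs, hAν, hn⟩ := row_minus_core hodd d m a b hab H
      (1 ::ₘ 1 ::ₘ Multiset.replicate d 2)
      (by
        intro e he
        rw [Multiset.mem_cons, Multiset.mem_cons, Multiset.mem_replicate] at he
        rcases he with rfl | rfl | ⟨-, rfl⟩ <;> omega)
      hA (by simp; omega) (e := 1) (by simp) odd_one (e₀ := 2)
      (by
        rw [Multiset.mem_cons, Multiset.mem_cons, Multiset.mem_replicate]
        exact Or.inr (Or.inr ⟨by omega, rfl⟩)) (by omega)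
    have := mod_four_minus hme hle hs hAν hn
    obtain ⟨x, hx⟩ := hde
    omega
  · have hk : Even (d + 1) := hdo.add_one
    obtain ⟨ν, hle, hs, hAν⟩ := row_minus_part hodd d m hme hmd a b hab H
      (Multiset.replicate (d + 1) 2)
      (by
        intro e he
        rw [Multiset.mem_replicate] at he
        obtain ⟨-, rfl⟩ := he
        omega)
      (by
        intro e _
        rw [Multiset.count_replicate]
        split_ifs
        · exact hk
        · exact Even.zero)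
      (by simp; ring)
    rw [Multiset.le_replicate_iff] at hle
    obtain ⟨j, -, rfl⟩ := hle
    have := hAν 2 even_two
    simp at hs this
    obtain ⟨x, hx⟩ := this
    obtain ⟨y, hy⟩ := hdo
    omega

end Cfsg.Agent.Lib.Helper21.Uni
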