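import Cfsg.Agent.Lib.Helper21.Uni.Defs
import Cfsg.Agent.Lib.Helper67.Elus.J1
import Cfsg.Agent.Lib.Helper67.Elus.J2
import Cfsg.Agent.Lib.Helper67.Elus.J4
import Cfsg.Agent.Lib.Helper67.Elus.J1a
import Cfsg.Agent.Lib.Helper67.Elus.J1b
import Cfsg.Agent.Lib.Helper67.Elus.J1c
import Cfsg.Agent.Lib.Helper67.Elus.J5b
import Cfsg.Agent.Lib.Helper67.Elus.J7b
import Cfsg.Agent.Lib.Helper67.Elus.JP
import Cfsg.Agent.Lib.Helper44.OmegaUnified
import Cfsg.Agent.Lib.Helper44.StdForms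
import Cfsg.Agent.Lib.Helper44.Transport
import Cfsg.Prelude.Def_GeometricClasses
import Cfsg.Agent.Lib.Helper70.Uni.R1
import Cfsg.Agent.Lib.Helper70.Uni.R2
import Cfsg.Agent.Lib.Helper70.Uni.R3
import Cfsg.Agent.Lib.Helper70.Uni.R4
import Cfsg.Agent.Lib.Helper11.Uni.S1
import Cfsg.Agent.Lib.Helper11.Uni.S2
import Cfsg.Agent.Lib.Helper96.Uni.S3
import Cfsg.Agent.Lib.Helper11.Uni.S4
import Cfsg.Agent.Lib.Helper11.Uni.S5
import Cfsg.Agent.Lib.Helper11.Uni.S6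
import Cfsg.Agent.Lib.Helper96.Uni.S7
import Cfsg.Agent.Lib.Helper11.Uni.B1
import Cfsg.Agent.Lib.Helper19.Uni.B2
import Cfsg.Agent.Lib.Helper19.Uni.B3
import Cfsg.Agent.Lib.Helper19.Uni.B4

set_option autoImplicit false

namespace Cfsg.Agent.Lib.Helper21.Uni

open Matrix Module Cfsg Cfsg.Geo Cfsg.Agent.Lib.Helper67.Elus

variable {F : Type*} [Field F] {V : Type*} [AddCommGroup V] [Module F V]

/-! ## R: the Cayley transform of a skew-adjoint nilpotent operator -/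

/-- R1 -/
theorem exists_cayley (B : LinearMap.BilinForm F V) {N : Module.End F V} (hN : IsNilpotent N)
    (hs : Skew B N) :
    ∃ x : V ≃ₗ[F] V, (∀ u v, B (x u) (x v) = B u v) ∧
      (x : Module.End F V) * (1 - N) = 1 + N ∧ Commute (x : Module.End F V) N := by
  exact Cfsg.Agent.Lib.Helper70.Uni.exists_cayley B hN hs

/-- R2 -/
theorem inv_of_cayley [FiniteDimensional F V] (h2 : (2 : F) ≠ 0) {N : Module.End F V}
    (hN : IsNilpotent N) {x : V ≃ₗ[F] V} (hx : (x : Module.End F V) * (1 - N) = 1 + N)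
    (hc : Commute (x : Module.End F V) N) {W : Submodule F V} (hW : ∀ w ∈ W, x w ∈ W) :
    Inv N W := by
  exact Cfsg.Agent.Lib.Helper70.Uni.inv_of_cayley h2 hN hx hc hW

/-- R3 -/
theorem cayley_pow [FiniteDimensional F V] {p : ℕ} [Fact p.Prime] [CharP F p] {N : Module.End F V}
    (hN : N ^ p = 0) {x : V ≃ₗ[F] V} (hx : (x : Module.End F V) * (1 - N) = 1 + N)
    (hc : Commute (x : Module.End F V) N) : x ^ p = 1 := by
  exact Cfsg.Agent.Lib.Helper70.Uni.cayley_pow hN hx hc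

/-- R4 -/
theorem cayley_ne_smul (h2 : (2 : F) ≠ 0) {N : Module.End F V} (hN : IsNilpotent N) (hN0 : N ≠ 0)
    {x : V ≃ₗ[F] V} (hx : (x : Module.End F V) * (1 - N) = 1 + N) (z : F) :
    (x : Module.End F V) ≠ z • 1 := by
  exact Cfsg.Agent.Lib.Helper70.Uni.cayley_ne_smul h2 hN hN0 hx z

/-! ## S: invariant non-degenerate subspaces -/

/-- S1 -/
theorem inv_orthogonal (B : LinearMap.BilinForm F V) {N : Module.End F V} (hs : Skew B N)
    {W : Submodule F V} (hW : Inv N W) : Inv N (B.orthogonal W) := by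
  exact Cfsg.Agent.Lib.Helper11.Uni.inv_orthogonal B hs hW

/-- S2 -/
theorem jtype_unique {N : Module.End F V} {μ μ' : Multiset ℕ} (h : JType N μ) (h' : JType N μ')
    (hp : ∀ e ∈ μ, 0 < e) (hp' : ∀ e ∈ μ', 0 < e) : μ = μ' := by
  exact Cfsg.Agent.Lib.Helper11.Uni.jtype_unique h h' hp hp'

/-- S3 -/
theorem even_finrank_range [FiniteDimensional F V] (B : LinearMap.BilinForm F V)
    (hB : B.Nondegenerate) (M : Module.End F V) (hM : ∀ u, B (M u) u = 0) :
    Even (finrank F (LinearMap.range M)) := by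
  exact Cfsg.Agent.Lib.Helper96.Uni.even_finrank_range B hB M hM

/-- S4 -/
theorem count_add_min_sums (ν : Multiset ℕ) (e : ℕ) :
    ν.count (e + 1) + (ν.map (fun a => min a e)).sum + (ν.map (fun a => min a (e + 2))).sum =
      2 * (ν.map (fun a => min a (e + 1))).sum := by
  exact Cfsg.Agent.Lib.Helper11.Uni.count_add_min_sums ν e

/-- S5 -/
theorem adm_of_skew [FiniteDimensional F V] (h2 : (2 : F) ≠ 0) (B : LinearMap.BilinForm F V)
    (hS : B.IsSymm) (hB : B.Nondegenerate) {N : Module.End F V} (hs : Skew B N) {ν : Multiset ℕ}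
    (hν : JType N ν) (hp : ∀ e ∈ ν, 0 < e) : Adm ν := by
  exact Cfsg.Agent.Lib.Helper11.Uni.adm_of_skew h2 B hS hB hs hν hp

/-- S6 -/
theorem sub_partition [FiniteDimensional F V] (h2 : (2 : F) ≠ 0) (B : LinearMap.BilinForm F V)
    (hS : B.IsSymm) {N : Module.End F V} (hs : Skew B N) (hN : IsNilpotent N) {μ : Multiset ℕ}
    (hμ : JType N μ) (hp : ∀ e ∈ μ, 0 < e) (W : Submodule F V) (hW : Inv N W)
    (hnd : (B.restrict W).Nondegenerate) :
    ∃ ν : Multiset ℕ, ν ≤ μ ∧ ν.sum = finrank F W ∧ Adm ν ∧ (∀ e ∈ ν, 0 < e) ∧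
      JType (N.restrict hW) ν := by
  exact Cfsg.Agent.Lib.Helper11.Uni.sub_partition h2 B hS hs hN hμ hp W hW hnd

/-- S7 -/
theorem isotropic_of_twos [FiniteDimensional F V] (B : LinearMap.BilinForm F V)
    {N : Module.End F V} (hs : Skew B N) (W : Submodule F V) (hW : Inv N W) {ν : Multiset ℕ}
    (hν : JType (N.restrict hW) ν) (h : ∀ e ∈ ν, e = 2) :
    ∃ U : Submodule F V, U ≤ W ∧ (∀ u ∈ U, ∀ v ∈ U, B u v = 0) ∧ 2 * finrank F U = finrank F W := by
  exact Cfsg.Agent.Lib.Helper96.Uni.isotropic_of_twos B hs W hW hν h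

/-! ## B: bridge to the groups of the statements -/

section bridge

variable {ι : Type} [Fintype ι] [DecidableEq ι]

/-- B1 -/
theorem mem_omegaGL_of_pow [Fintype F] (h2 : (2 : F) ≠ 0) (Q : QuadraticForm F (ι → F))
    (hQ : (QuadraticMap.polarBilin Q).Nondegenerate) {p : ℕ} (hp : Odd p) (x : GL ι F)
    (hx : x ∈ Cfsg.isometryGroup F ⇑Q) (hxp : x ^ p = 1) : x ∈ omegaGL ⇑Q := by
  exact Cfsg.Agent.Lib.Helper11.Uni.mem_omegaGL_of_pow h2 Q hQ hp x hx hxp

/-- B2 -/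
theorem exists_end_of_realM (Q : QuadraticForm F (ι → F)) (G : Matrix ι ι F)
    (hG : ∀ u v, QuadraticMap.polar Q u v = u ⬝ᵥ (G *ᵥ v)) {μ : Multiset ℕ} (h : RealM G μ) :
    ∃ N : Module.End F (ι → F), JType N μ ∧ Skew (QuadraticMap.polarBilin Q) N := by
  exact Cfsg.Agent.Lib.Helper19.Uni.exists_end_of_realM Q G hG h

/-- B3 -/
theorem restrict_nondegenerate (Q : QuadraticForm F (ι → F)) (W : Submodule F (ι → F))
    (h : IsNondegenerateOn (QuadraticMap.polar ⇑Q) W) :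
    (LinearMap.BilinForm.restrict (QuadraticMap.polarBilin Q) W).Nondegenerate := by
  exact Cfsg.Agent.Lib.Helper19.Uni.restrict_nondegenerate Q W h

/-- B4 -/
theorem exists_gl_of_equiv (h2 : (2 : F) ≠ 0) (Q : QuadraticForm F (ι → F))
    (x : (ι → F) ≃ₗ[F] (ι → F))
    (hx : ∀ u v, QuadraticMap.polarBilin Q (x u) (x v) = QuadraticMap.polarBilin Q u v) :
    ∃ g : GL ι F, g ∈ Cfsg.isometryGroup F ⇑Q ∧ (∀ v, (g : Matrix ι ι F) *ᵥ v = x v) ∧
      ∀ k : ℕ, x ^ k = 1 → g ^ k = 1 := by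
  exact Cfsg.Agent.Lib.Helper19.Uni.exists_gl_of_equiv h2 Q x hx

end bridge

end Cfsg.Agent.Lib.Helper21.Uni
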