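import Cfsg.Agent.Lib.Helper21.Uni.Core
import Cfsg.Agent.Lib.Helper21.Uni.Gram

set_option autoImplicit false

/-! # Unipotent elements of orthogonal groups: the rows in the plus and odd-dimensional cases -/

namespace Cfsg.Agent.Lib.Helper21.Uni

open Matrix Module Cfsg Cfsg.Geo Cfsg.Agent.Lib.Helper67.Elus Cfsg.Agent.Lib.Helper44

theorem odd_char {F : Type*} [Field F] [Fintype F] {p : ℕ} [hp : Fact p.Prime] [CharP F p]
    (hodd : Odd (Fintype.card F)) : Odd p ∧ (2 : F) ≠ 0 := by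
  have hp2 : p ≠ 2 := by
    rintro rfl
    obtain ⟨n, -, hn⟩ := FiniteField.card F 2
    rw [hn] at hodd
    have : Even (2 ^ (n : ℕ)) := (Nat.even_pow.2 ⟨even_two, n.ne_zero⟩)
    exact (Nat.not_even_iff_odd.2 hodd) this
  refine ⟨hp.out.eq_two_or_odd'.resolve_left hp2, ?_⟩
  intro h
  have h' : ((2 : ℕ) : F) = 0 := by exact_mod_cast h
  rw [CharP.cast_eq_zero_iff F p 2] at h'
  exact hp2 ((Nat.prime_dvd_prime_iff_eq hp.out Nat.prime_two).1 h')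

/-- a partition into ones -/
theorem sub_of_all_ones {μ : Multiset ℕ} (h : ∀ e ∈ μ, e = 1) {m : ℕ} (hm : m ≤ μ.sum) :
    ∃ ν : Multiset ℕ, ν ≤ μ ∧ ν.sum = m ∧ Adm ν := by
  have hμ : μ = Multiset.replicate (Multiset.card μ) 1 := Multiset.eq_replicate_card.2 h
  have hs : μ.sum = Multiset.card μ := by
    conv_lhs => rw [hμ]
    simp
  refine ⟨Multiset.replicate m 1, ?_, by simp, ?_⟩
  · rw [hμ]
    exact Multiset.replicate_le_replicate 1 |>.2 (hs ▸ hm)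
  · intro e he
    rw [Multiset.count_replicate, if_neg]
    · exact Even.zero
    · rintro rfl
      exact absurd he (by decide)

variable {F : Type*} [Field F] [Fintype F]

theorem row_plus {p : ℕ} [Fact p.Prime] [CharP F p] (hodd : Odd (Fintype.card F)) (d m : ℕ)
    (hmd : m ≤ 2 * d)
    (H : ∀ x : GL (Fin d ⊕ Fin d) F, x ∈ omegaGL (quadFormPlus d F) →
      (∃ z : F, ((x ^ p : GL (Fin d ⊕ Fin d) F) : Matrix (Fin d ⊕ Fin d) (Fin d ⊕ Fin d) F) =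
        z • (1 : Matrix (Fin d ⊕ Fin d) (Fin d ⊕ Fin d) F)) →
      (∀ z : F, (x : Matrix (Fin d ⊕ Fin d) (Fin d ⊕ Fin d) F) ≠
        z • (1 : Matrix (Fin d ⊕ Fin d) (Fin d ⊕ Fin d) F)) →
      ∃ W : Submodule F (Fin d ⊕ Fin d → F), (finrank F ↥W = m ∧
        IsNondegenerateOn (QuadraticMap.polar (quadFormPlus d F)) W) ∧
        W.map (Matrix.toLin' (x : Matrix (Fin d ⊕ Fin d) (Fin d ⊕ Fin d) F)) ≤ W)
    (μ : Multiset ℕ) (hμ : ∀ e ∈ μ, 0 < e ∧ e ≤ p) (hA : Adm μ) (hsum : μ.sum = 2 * d) :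
    ∃ ν : Multiset ℕ, ν ≤ μ ∧ ν.sum = m ∧ Adm ν := by
  obtain ⟨hpodd, h2⟩ := odd_char (F := F) (p := p) hodd
  by_cases h1 : ∀ e ∈ μ, e = 1
  · exact sub_of_all_ones h1 (hsum ▸ hmd)
  · push Not at h1
    obtain ⟨e₀, he₀, hne⟩ := h1
    have h1' : 1 < e₀ := by have := (hμ e₀ he₀).1; omega
    obtain ⟨x, hxΩ, hxp, hxns, hxW⟩ := row_core h2 hpodd (plusQF d F) (plusQF_nondeg d F)
      (Hy (Fin d) F) (plusQF_gram d) hμ he₀ h1' (realM_plus h2 μ hA d hsum)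
    rw [plusQF_coe] at hxΩ hxW
    obtain ⟨W, ⟨hWm, hWnd⟩, hWx⟩ := H x hxΩ ⟨1, by rw [hxp]; simp⟩ hxns
    obtain ⟨ν, hle, hs, hAν, -⟩ := hxW W hWnd hWx
    exact ⟨ν, hle, hs.trans hWm, hAν⟩

theorem row_odd {p : ℕ} [hp : Fact p.Prime] [CharP F p] (hodd : Odd (Fintype.card F)) (d m : ℕ)
    (hmd : m ≤ 2 * d)
    (H : ∀ x : GL (Unit ⊕ (Fin d ⊕ Fin d)) F, x ∈ omegaGL (quadFormOdd d F) → orderOf x = p →
      ∃ W : Submodule F (Unit ⊕ (Fin d ⊕ Fin d) → F), (finrank F ↥W = m ∧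
        IsNondegenerateOn (QuadraticMap.polar (quadFormOdd d F)) W) ∧
        W.map (Matrix.toLin' (x : Matrix (Unit ⊕ (Fin d ⊕ Fin d)) (Unit ⊕ (Fin d ⊕ Fin d)) F)) ≤ W)
    (μ : Multiset ℕ) (hμ : ∀ e ∈ μ, 0 < e ∧ e ≤ p) (hA : Adm μ) (hsum : μ.sum = 2 * d + 1) :
    ∃ ν : Multiset ℕ, ν ≤ μ ∧ ν.sum = m ∧ Adm ν := by
  obtain ⟨hpodd, h2⟩ := odd_char (F := F) (p := p) hodd
  by_cases h1 : ∀ e ∈ μ, e = 1
  · exact sub_of_all_ones h1 (by omega)
  · push Not at h1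
    obtain ⟨e₀, he₀, hne⟩ := h1
    have h1' : 1 < e₀ := by have := (hμ e₀ he₀).1; omega
    obtain ⟨x, hxΩ, hxp, hxns, hxW⟩ := row_core h2 hpodd (oddQF d F) (oddQF_nondeg d F h2)
      (bs (Ln (2 : F)) (Hy (Fin d) F)) (oddQF_gram d) hμ he₀ h1' (realM_oddDim h2 h2 μ hA d hsum)
    rw [oddQF_coe] at hxΩ hxW
    have hord : orderOf x = p := by
      apply orderOf_eq_prime hxp
      rintro rfl
      exact hxns 1 (by simp)
    obtain ⟨W, ⟨hWm, hWnd⟩, hWx⟩ := H x hxΩ hord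
    obtain ⟨ν, hle, hs, hAν, -⟩ := hxW W hWnd hWx
    exact ⟨ν, hle, hs.trans hWm, hAν⟩

/-- a sub-multiset of `(c, 2^k)`, `c` odd, of even sum with an even number of twos -/
theorem mod_four_of_sub {c k m : ℕ} (hc : Odd c) (hme : Even m) {ν : Multiset ℕ}
    (hle : ν ≤ c ::ₘ Multiset.replicate k 2) (hs : ν.sum = m) (hA : Adm ν) : m % 4 = 0 := by
  by_cases hcν : c ∈ ν
  · obtain ⟨ν', rfl⟩ := Multiset.exists_cons_of_mem hcν
    rw [Multiset.cons_le_cons_iff, Multiset.le_replicate_iff] at hle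
    obtain ⟨j, -, rfl⟩ := hle
    simp at hs
    obtain ⟨a, ha⟩ := hc
    obtain ⟨b, hb⟩ := hme
    omega
  · rw [Multiset.le_cons_of_notMem hcν, Multiset.le_replicate_iff] at hle
    obtain ⟨j, -, rfl⟩ := hle
    have := hA 2 even_two
    simp at hs this
    obtain ⟨a, ha⟩ := this
    omega

theorem adm_cons_twos {c k : ℕ} (hc : Odd c) (hk : Even k) :
    Adm (c ::ₘ Multiset.replicate k 2) := by
  intro e he
  have hne : e ≠ c := by
    rintro rfl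
    exact (Nat.not_even_iff_odd.2 hc) he
  rw [Multiset.count_cons_of_ne hne, Multiset.count_replicate]
  split_ifs
  · exact hk
  · exact Even.zero

theorem row_odd_mod {p d m : ℕ} (hp3 : 3 ≤ p) (hd : 1 ≤ d) (hme : Even m)
    (H : ∀ μ : Multiset ℕ, (∀ e ∈ μ, 0 < e ∧ e ≤ p) → Adm μ → μ.sum = 2 * d + 1 →
      ∃ ν : Multiset ℕ, ν ≤ μ ∧ ν.sum = m ∧ Adm ν) : m % 4 = 0 := by
  rcases Nat.even_or_odd d with hde | hdo
  · obtain ⟨ν, hle, hs, hA⟩ := H (1 ::ₘ Multiset.replicate d 2)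
      (by
        intro e he
        rw [Multiset.mem_cons, Multiset.mem_replicate] at he
        rcases he with rfl | ⟨-, rfl⟩ <;> omega)
      (adm_cons_twos odd_one hde) (by simp; ring)
    exact mod_four_of_sub odd_one hme hle hs hA
  · have h3 : Odd 3 := by decide
    have hk : Even (d - 1) := by
      obtain ⟨a, ha⟩ := hdo
      exact ⟨a, by omega⟩
    obtain ⟨ν, hle, hs, hA⟩ := H (3 ::ₘ Multiset.replicate (d - 1) 2)
      (by
        intro e he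
        rw [Multiset.mem_cons, Multiset.mem_replicate] at he
        rcases he with rfl | ⟨-, rfl⟩ <;> omega)
      (adm_cons_twos h3 hk) (by simp; omega)
    exact mod_four_of_sub h3 hme hle hs hA

end Cfsg.Agent.Lib.Helper21.Uni
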